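import Cfsg.Agent.Lib.Helper47.PRes
import Cfsg.Agent.Lib.Helper22.Signalizer
import Cfsg.Agent.Lib.Helper22.Generation2
import Cfsg.Agent.Lib.Helper9.Schmidt
import Cfsg.Agent.S1284

/-!
# The solvable signalizer functor theorem inside a solvable `p'`-group ("Theorem L")
-/

set_option autoImplicit false
set_option linter.unusedSectionVars false
open Cfsg Subgroup

namespace Cfsg.Agent.Lib.Helper47

open Cfsg.Agent.Lib.Helper22

variable {G : Type*} [Group G] [Finite G]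

/-- The statement of piece Q. -/
def QuotSinglePrime (G : Type*) [Group G] [Finite G] : Prop :=
  ∀ (p : ℕ) [Fact p.Prime]
    (A : Subgroup G) (_ : IsElementaryAbelian p A) (_ : p ^ 3 ≤ Nat.card ↥A)
    (θ : G → Subgroup G) (_ : IsSolvableSignalizerFunctor p A θ)
    (Z : Subgroup G) (_ : Z ∈ signalizerFamily p A θ)
    (_ : ∀ a ∈ A, a ≠ 1 → θ a ≤ normalizer (Z : Set G))
    (s : ℕ) [Fact s.Prime] (_ : ∀ a ∈ A, a ≠ 1 → ∀ x ∈ θ a, ∃ k : ℕ, x ^ s ^ k ∈ Z),
    ∃ W ∈ signalizerFamily p A θ, ∀ a ∈ A, a ≠ 1 → θ a ≤ W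

theorem le_normalizer_iSup' {ι : Sort*} {f : ι → Subgroup G} {A : Subgroup G}
    (h : ∀ i, A ≤ normalizer (f i : Set G)) : A ≤ normalizer ((⨆ i, f i : Subgroup G) : Set G) := by
  rw [le_normalizer_iff]
  intro a ha
  have : (⨆ i, f i) ≤ (⨆ i, f i).comap (MulAut.conj a).toMonoidHom := by
    refine iSup_le fun i x hx => ?_
    rw [mem_comap]
    exact (le_iSup f i) (le_normalizer_iff.mp (h i) a ha x hx)
  intro k hk
  exact this hk

theorem exists_pResOf_lt {X : Subgroup G} (hXs : Group.IsSolvable ↥X) (hX : X ≠ ⊥) :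
    ∃ s : ℕ, s.Prime ∧ pResOf s X < X := by
  have : Nontrivial ↥X := (nontrivial_iff_ne_bot X).mpr hX
  obtain ⟨M, hMn, hMi⟩ := Cfsg.Agent.Lib.Helper9.exists_normal_prime_index (G := ↥X)
  refine ⟨M.index, hMi, ?_⟩
  have : Fact M.index.Prime := ⟨hMi⟩
  have h1 : IsPGroup M.index (↥X ⧸ M) := by
    apply IsPGroup.of_card (n := 1)
    rw [pow_one, Subgroup.index_eq_card]
  have h2 : pResidual M.index ↥X ≤ M := pResidual_le_of_isPGroup_quotient h1
  refine lt_of_le_of_ne (pResOf_le X) ?_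
  intro heq
  have h3 : pResidual M.index ↥X = ⊤ := by
    rw [← pResOf_subgroupOf, heq]
    exact subgroupOf_self X
  rw [h3, top_le_iff] at h2
  rw [h2, index_top] at hMi
  exact Nat.not_prime_one hMi

theorem closure_mem_family_of_le {p : ℕ} {A : Subgroup G} {θ : G → Subgroup G}
    (hθ : IsSolvableSignalizerFunctor p A θ) {W : Subgroup G} (hW : W ∈ signalizerFamily p A θ)
    (h : ∀ a ∈ A, a ≠ 1 → θ a ≤ W) : signalizerClosure A θ ∈ signalizerFamily p A θ := by
  apply family_of_le hW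
  · exact iSup_le fun a => h a.1 a.2.1 a.2.2
  · exact le_normalizer_iSup' fun a => le_normalizer_iff.mpr (hθ.1.2.2.1 a.1 a.2.1 a.2.2)

theorem local_sft_aux (hQ : QuotSinglePrime G) (p : ℕ) [Fact p.Prime] (A : Subgroup G)
    (hA : IsElementaryAbelian p A) (hA3 : p ^ 3 ≤ Nat.card ↥A) :
    ∀ (n : ℕ) (X : Subgroup G) (θ : G → Subgroup G), Nat.card ↥X = n →
      IsSolvableSignalizerFunctor p A θ → Group.IsSolvable ↥X → ¬ p ∣ Nat.card ↥X →
      A ≤ normalizer (X : Set G) → (∀ a ∈ A, a ≠ 1 → θ a ≤ X) →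
      signalizerClosure A θ ∈ signalizerFamily p A θ := by
  have hp : p.Prime := Fact.out
  have hAc : ∀ x ∈ A, ∀ y ∈ A, x * y = y * x := elemAb_comm hA
  have hAp : ∀ x ∈ A, x ^ p = 1 := hA.2
  intro n
  induction n using Nat.strong_induction_on with
  | _ n ih =>
  intro X θ hn hθ hXs hXp hAX hθX
  by_cases hX : X = ⊥
  · have : signalizerClosure A θ = ⊥ := by
      rw [eq_bot_iff, ← hX]
      exact iSup_le fun a => hθX a.1 a.2.1 a.2.2
    rw [this]
    exact family_bot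
  obtain ⟨s, hs, hK⟩ := exists_pResOf_lt hXs hX
  have : Fact s.Prime := ⟨hs⟩
  set K := pResOf s X with hKdef
  have hKX : K ≤ X := hK.le
  have hAK : A ≤ normalizer (K : Set G) := hAX.trans (normalizer_le_normalizer_pResOf X)
  have hXK : X ≤ normalizer (K : Set G) := le_normalizer_pResOf X
  set θK : G → Subgroup G := fun a => θ a ⊓ K with hθK
  have hθKf : IsSolvableSignalizerFunctor p A θK := by
    refine ⟨⟨?_, ?_, ?_, ?_⟩, ?_⟩
    · intro a ha ha1
      exact inf_le_left.trans (hθ.1.1 a ha ha1)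
    · intro a ha ha1
      exact not_dvd_card_of_le inf_le_left (hθ.1.2.1 a ha ha1)
    · intro a ha ha1 b hb x hx
      exact mem_inf.mpr ⟨hθ.1.2.2.1 a ha ha1 b hb x hx.1, le_normalizer_iff.mp hAK b hb x hx.2⟩
    · intro a ha ha1 b hb hb1 x hx
      exact mem_inf.mpr ⟨hθ.1.2.2.2 a ha ha1 b hb hb1 (mem_inf.mpr ⟨hx.1.1, hx.2⟩), hx.1.2⟩
    · intro a ha ha1
      have := hθ.2 a ha ha1
      exact Group.isSolvable_of_isSolvable_injective (f := inclusion (inf_le_left : θ a ⊓ K ≤ θ a))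
        (inclusion_injective _)
  have hKs : Group.IsSolvable ↥K :=
    Group.isSolvable_of_isSolvable_injective (f := inclusion hKX) (inclusion_injective _)
  have hZ0 := ih (Nat.card ↥K) (hn ▸ natCard_lt_of_lt hK) K θK rfl hθKf hKs
    (not_dvd_card_of_le hKX hXp) hAK (fun a _ _ => inf_le_right)
  set Z := signalizerClosure A θK with hZdef
  have hZ : Z ∈ signalizerFamily p A θ :=
    ⟨hZ0.1, hZ0.2.1, hZ0.2.2.1, fun a ha ha1 => (hZ0.2.2.2 a ha ha1).trans inf_le_left⟩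
  have hleZ : ∀ e ∈ A, e ≠ 1 → θ e ⊓ K ≤ Z := fun e he he1 =>
    le_iSup (fun a : {a : G // a ∈ A ∧ a ≠ 1} => θK (a : G)) ⟨e, he, he1⟩
  have hnZ : ∀ a ∈ A, a ≠ 1 → θ a ≤ normalizer (Z : Set G) := by
    intro a ha ha1
    refine (le_iSup_centralizer_hyperplane A (θ a) hAc hAp
      (le_trans (by nlinarith [hp.two_le, pow_succ p 2, sq_nonneg p]) hA3) (hθ.1.2.1 a ha ha1)
      (le_normalizer_iff.mpr (hθ.1.2.2.1 a ha ha1))).trans (iSup_le ?_)
    rintro ⟨B, hBA, hBi⟩ x hx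
    rw [mem_inf] at hx
    apply mem_normalizer_of_cj_le
    have hB2 : p ^ 2 ≤ Nat.card ↥B := by
      have h1 := relIndex_mul_natCard hBA
      rw [hBi] at h1
      have h2 : p ^ 3 ≤ p * Nat.card ↥B := h1 ▸ hA3
      have h3 : p * p ^ 2 ≤ p * Nat.card ↥B := by
        calc p * p ^ 2 = p ^ 3 := by ring
          _ ≤ _ := h2
      exact Nat.le_of_mul_le_mul_left h3 hp.pos
    have hgen := le_of_forall_centralizer_le B Z (Z.comap (MulAut.conj x).toMonoidHom)
      (fun u hu v hv => hAc u (hBA hu) v (hBA hv)) (fun u hu => hAp u (hBA hu)) hB2 hZ.2.1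
      (hBA.trans (family_le_normalizer hZ)) (by
        intro e he he1 z hz
        have hz' : z ∈ θ e ⊓ K := hZ0.2.2.2 e (hBA he) he1 hz
        have hxe : x ∈ θ e := hθ.1.2.2.2 a ha ha1 e (hBA he) he1 (mem_inf.mpr ⟨hx.1, by
          rw [mem_centralizer_singleton_iff]
          exact (mem_centralizer_iff.mp hx.2 e he).symm⟩)
        rw [mem_comap]
        apply hleZ e (hBA he) he1
        refine mem_inf.mpr ⟨mul_mem (mul_mem hxe hz'.1) (inv_mem hxe), ?_⟩
        exact le_normalizer_iff.mp hXK x (hθX e (hBA he) he1 hxe) z hz'.2)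
    rintro _ ⟨z, hz, rfl⟩
    exact hgen hz
  obtain ⟨W, hW, hθW⟩ := hQ p A hA hA3 θ hθ Z hZ hnZ s (by
    intro a ha ha1 x hx
    obtain ⟨k, hk⟩ := PQuot_pResOf (p := s) X x (hθX a ha ha1 hx)
    exact ⟨k, hleZ a ha ha1 (mem_inf.mpr ⟨pow_mem hx _, hk⟩)⟩)
  exact closure_mem_family_of_le hθ hW hθW

/-- **Theorem L**: a solvable signalizer functor with values in a solvable `A`-invariant
`p'`-subgroup is complete. -/
theorem local_sft (hQ : QuotSinglePrime G) (p : ℕ) [Fact p.Prime] (A : Subgroup G)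
    (hA : IsElementaryAbelian p A) (hA3 : p ^ 3 ≤ Nat.card ↥A) (θ : G → Subgroup G)
    (hθ : IsSolvableSignalizerFunctor p A θ) (X : Subgroup G) (hXs : Group.IsSolvable ↥X)
    (hXp : ¬ p ∣ Nat.card ↥X) (hAX : A ≤ normalizer (X : Set G))
    (hθX : ∀ a ∈ A, a ≠ 1 → θ a ≤ X) :
    signalizerClosure A θ ∈ signalizerFamily p A θ :=
  local_sft_aux hQ p A hA hA3 _ X θ rfl hθ hXs hXp hAX hθX

end Cfsg.Agent.Lib.Helper47
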